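import Mathlib

set_option autoImplicit false

namespace Cfsg.Agent.Mil

open Equiv Equiv.Perm MulAction Subgroup

variable {α : Type*}

/-- data: an elementary abelian `p`-group acting with orbits of length `p` on `D`, trivially off `D`. -/
structure Dat (p : ℕ) (P : Subgroup (Perm α)) (D : Set α) : Prop where
  comm : ∀ x ∈ P, ∀ w ∈ P, x * w = w * x
  pow : ∀ x ∈ P, x ^ p = 1
  gen : ∀ y ∈ D, ∃ x₀ ∈ P, ∀ w ∈ P, ∃ i : ℤ, w y = (x₀ ^ i) y
  fix : ∀ x ∈ P, ∀ y, y ∉ D → x y = y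
  move : ∀ y ∈ D, ∃ x ∈ P, x y ≠ y

theorem zpow_fix {x : Perm α} {y : α} (h : x y = y) (i : ℤ) : (x ^ i) y = y :=
  (Subgroup.zpow_mem (stabilizer (Perm α) y) (x := x) h i)

variable {p : ℕ} {P : Subgroup (Perm α)} {D : Set α}

theorem Dat.capp (h : Dat p P D) {x w : Perm α} (hx : x ∈ P) (hw : w ∈ P) (y : α) :
    x (w y) = w (x y) := by
  rw [← mul_apply, h.comm x hx w hw, mul_apply]

theorem Dat.zpow_congr (h : Dat p P D) {x w : Perm α} (hx : x ∈ P) (hw : w ∈ P) {y : α}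
    (e : x y = w y) (i : ℤ) : (x ^ i) y = (w ^ i) y := by
  have hc : Commute w⁻¹ x := h.comm _ (P.inv_mem hw) _ hx
  have h1 : (w⁻¹ * x) y = y := by rw [mul_apply, e]; simp
  have h2 := zpow_fix h1 i
  rw [hc.mul_zpow, mul_apply, inv_zpow, Perm.inv_eq_iff_eq] at h2
  exact h2

theorem Dat.dvd (h : Dat p P D) (hp : p.Prime) {x : Perm α} (hx : x ∈ P) {y : α} (hy : x y ≠ y)
    {d : ℤ} (e : (x ^ d) y = y) : (p : ℤ) ∣ d := by
  by_contra hd
  have hc : IsCoprime d (p : ℤ) := by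
    rw [isCoprime_comm]
    exact (Nat.prime_iff_prime_int.mp hp).coprime_iff_not_dvd.mpr hd
  obtain ⟨s, t, hst⟩ := hc
  apply hy
  have h1 : x = (x ^ d) ^ s := by
    calc x = x ^ (s * d + t * p) := by rw [hst, zpow_one]
      _ = (x ^ d) ^ s := by
        rw [zpow_add, mul_comm t, zpow_mul x p, zpow_natCast, h.pow x hx, one_zpow, mul_one,
          mul_comm s, zpow_mul]
  rw [h1]; exact zpow_fix e s

theorem Dat.zpow_eq (h : Dat p P D) {x : Perm α} (hx : x ∈ P) {a b : ℤ} (e : (p : ℤ) ∣ a - b) :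
    x ^ a = x ^ b := by
  obtain ⟨c, hc⟩ := e
  rw [show a = p * c + b by linarith, zpow_add, zpow_mul, zpow_natCast, h.pow x hx, one_zpow,
    one_mul]

/-- elements normalising `P` and each of its orbits -/
def Good (P : Subgroup (Perm α)) (D : Set α) (g : Perm α) : Prop :=
  (∀ x ∈ P, g * x * g⁻¹ ∈ P) ∧ ∀ y ∈ D, ∃ u ∈ P, g⁻¹ y = u y

theorem Dat.lam (h : Dat p P D) {g : Perm α} (hg : Good P D g) {y : α} (hy : y ∈ D) :
    ∃ l : ℤ, ∀ x ∈ P, (g * x * g⁻¹) y = (x ^ l) y := by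
  obtain ⟨x₀, hx₀, hgen⟩ := h.gen y hy
  obtain ⟨u, hu, hgu⟩ := hg.2 y hy
  obtain ⟨l, hl⟩ := hgen _ (hg.1 x₀ hx₀)
  refine ⟨l, fun x hx => ?_⟩
  obtain ⟨i, hi⟩ := hgen x hx
  have e1 : (g * x * g⁻¹) y = ((g * x₀ * g⁻¹) ^ i) y := by
    rw [conj_zpow, mul_apply, mul_apply, mul_apply, mul_apply, hgu, h.capp hx hu, hi,
      h.capp (P.zpow_mem hx₀ i) hu]
  rw [e1, h.zpow_congr (hg.1 x₀ hx₀) (P.zpow_mem hx₀ l) hl i,
    h.zpow_congr hx (P.zpow_mem hx₀ i) hi l, ← zpow_mul, ← zpow_mul, mul_comm]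

theorem Dat.ext (h : Dat p P D) {x w : Perm α} (hx : x ∈ P) (hw : w ∈ P)
    (e : ∀ y ∈ D, x y = w y) : x = w := by
  ext y
  by_cases hy : y ∈ D
  · exact e y hy
  · rw [h.fix x hx y hy, h.fix w hw y hy]

theorem Dat.conj_comm (h : Dat p P D) {g k : Perm α} (hg : Good P D g) (hk : Good P D k)
    {x : Perm α} (hx : x ∈ P) : g * k * x * (g * k)⁻¹ = k * g * x * (k * g)⁻¹ := by
  have e1 : g * k * x * (g * k)⁻¹ = g * (k * x * k⁻¹) * g⁻¹ := by group
  have e2 : k * g * x * (k * g)⁻¹ = k * (g * x * g⁻¹) * k⁻¹ := by group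
  rw [e1, e2]
  refine h.ext (hg.1 _ (hk.1 x hx)) (hk.1 _ (hg.1 x hx)) fun y hy => ?_
  obtain ⟨l, hl⟩ := h.lam hg hy
  obtain ⟨m, hm⟩ := h.lam hk hy
  rw [hl _ (hk.1 x hx), hm _ (hg.1 x hx), h.zpow_congr (hk.1 x hx) (P.zpow_mem hx m) (hm x hx),
    h.zpow_congr (hg.1 x hx) (P.zpow_mem hx l) (hl x hx), ← zpow_mul, ← zpow_mul, mul_comm]

theorem Dat.uniform [Fintype α] [DecidableEq α] (h : Dat p P D) (hp : p.Prime)
    (hD : D.ncard < 4 * p) (hno : ∀ x ∈ P, x ≠ 1 → 2 * p ≤ x.support.card)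
    {g : Perm α} (hg : Good P D g) : ∃ l : ℤ, ∀ x ∈ P, g * x * g⁻¹ = x ^ l := by
  classical
  have hl : ∀ y, ∃ l : ℤ, y ∈ D → ∀ x ∈ P, (g * x * g⁻¹) y = (x ^ l) y := by
    intro y
    by_cases hy : y ∈ D
    · obtain ⟨l, hl⟩ := h.lam hg hy
      exact ⟨l, fun _ => hl⟩
    · exact ⟨0, fun h => absurd h hy⟩
  choose lam hlam using hl
  have key : ∀ y ∈ D, ∀ B : Finset α, (∀ z ∈ B, z ∈ D ∧ ¬ (p : ℤ) ∣ lam y - lam z) →
      ∃ x ∈ P, x y ≠ y ∧ ∀ z ∈ B, x z = z := by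
    intro y hy B
    induction B using Finset.induction_on with
    | empty =>
      intro _
      obtain ⟨x, hx, hxy⟩ := h.move y hy
      exact ⟨x, hx, hxy, by simp⟩
    | insert z₀ B _ ih =>
      intro hB
      obtain ⟨x, hx, hxy, hxB⟩ := ih fun z hz => hB z (Finset.mem_insert_of_mem hz)
      have hT : ∀ z ∈ D, (x ^ (-lam z₀) * (g * x * g⁻¹)) z = (x ^ (lam z - lam z₀)) z := by
        intro z hz
        rw [mul_apply, hlam z hz x hx, ← mul_apply, ← zpow_add]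
        congr 2; ring
      refine ⟨x ^ (-lam z₀) * (g * x * g⁻¹), P.mul_mem (P.zpow_mem hx _) (hg.1 x hx), ?_, ?_⟩
      · rw [hT y hy]
        exact fun e => (hB z₀ (Finset.mem_insert_self _ _)).2 (h.dvd hp hx hxy e)
      · intro z hz
        rw [hT z (hB z hz).1]
        rcases Finset.mem_insert.mp hz with rfl | hz'
        · simp
        · exact zpow_fix (hxB z hz') _
  have big : ∀ y ∈ D, 2 * p ≤ (Finset.univ.filter fun z => z ∈ D ∧ (p : ℤ) ∣ lam y - lam z).card := by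
    intro y hy
    obtain ⟨x, hx, hxy, hxB⟩ := key y hy
      (Finset.univ.filter fun z => z ∈ D ∧ ¬ (p : ℤ) ∣ lam y - lam z) (by simp)
    refine (hno x hx (by rintro rfl; simp at hxy)).trans (Finset.card_le_card fun z hz => ?_)
    rw [mem_support] at hz
    simp only [Finset.mem_filter, Finset.mem_univ, true_and] at hxB ⊢
    have hzD : z ∈ D := by
      by_contra hzD; exact hz (h.fix x hx z hzD)
    refine ⟨hzD, ?_⟩
    by_contra hd
    exact hz (hxB z ⟨hzD, hd⟩)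
  have all : ∀ y ∈ D, ∀ z ∈ D, (p : ℤ) ∣ lam y - lam z := by
    intro y hy z hz
    by_contra hd
    have h1 := big y hy
    have h2 := big z hz
    have h3 : Disjoint (Finset.univ.filter fun w => w ∈ D ∧ (p : ℤ) ∣ lam y - lam w)
        (Finset.univ.filter fun w => w ∈ D ∧ (p : ℤ) ∣ lam z - lam w) := by
      rw [Finset.disjoint_left]
      intro w hw hw'
      simp only [Finset.mem_filter, Finset.mem_univ, true_and] at hw hw'
      apply hd
      have := dvd_sub hw.2 hw'.2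
      rwa [show lam y - lam w - (lam z - lam w) = lam y - lam z by ring] at this
    have h4 := Finset.card_union_of_disjoint h3
    have h5 : ((Finset.univ.filter fun w => w ∈ D ∧ (p : ℤ) ∣ lam y - lam w) ∪
        (Finset.univ.filter fun w => w ∈ D ∧ (p : ℤ) ∣ lam z - lam w)).card ≤ D.ncard := by
      rw [← Set.ncard_coe_finset]
      refine Set.ncard_le_ncard (fun w hw => ?_)
      simp only [Finset.coe_union, Finset.coe_filter, Finset.mem_univ, true_and, Set.mem_union,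
        Set.mem_setOf_eq] at hw
      rcases hw with hw | hw <;> exact hw.1
    omega
  by_cases hne : D.Nonempty
  · obtain ⟨y, hy⟩ := hne
    refine ⟨lam y, fun x hx => h.ext (hg.1 x hx) (P.zpow_mem hx _) fun z hz => ?_⟩
    rw [hlam z hz x hx, h.zpow_eq hx (all z hz y hy)]
  · exact ⟨0, fun x hx => h.ext (hg.1 x hx) (P.zpow_mem hx _) fun z hz => absurd ⟨z, hz⟩ hne⟩

theorem Dat.cpow (h : Dat p P D) {c : Perm α} (hc : ∀ x ∈ P, c * x = x * c)
    (hg : ∀ y ∈ D, ∃ u ∈ P, c y = u y) {y : α} (hy : y ∈ D) : (c ^ p) y = y := by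
  obtain ⟨u, hu, e⟩ := hg y hy
  have : ∀ i : ℕ, (c ^ i) y = (u ^ i) y := by
    intro i
    induction i with
    | zero => simp
    | succ i ih =>
      rw [pow_succ', mul_apply, ih, ← mul_apply, hc _ (P.pow_mem hu i), mul_apply, e, ← mul_apply,
        ← pow_succ]
  rw [this, h.pow u hu]; rfl

theorem Dat.ccomm (h : Dat p P D) {c d : Perm α} (hc : ∀ x ∈ P, c * x = x * c)
    (hg : ∀ y ∈ D, ∃ u ∈ P, c y = u y) (hd : ∀ x ∈ P, d * x = x * d)
    (hg' : ∀ y ∈ D, ∃ u ∈ P, d y = u y) {y : α} (hy : y ∈ D) : (c * d) y = (d * c) y := by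
  obtain ⟨u, hu, e⟩ := hg y hy
  obtain ⟨v, hv, e'⟩ := hg' y hy
  rw [mul_apply, mul_apply, e', e, ← mul_apply c, hc v hv, ← mul_apply d, hd u hu, mul_apply,
    mul_apply, e, e', h.capp hu hv]

/-- existence of the data for a `p`-group without fixed points on a set of size `< p ^ 2`. -/
theorem dat_of [Finite α] (hp : p.Prime) (hP : IsPGroup p P) (hD : D.ncard < p ^ 2)
    (hfix : ∀ x ∈ P, ∀ y, y ∉ D → x y = y) (hmove : ∀ y ∈ D, ∃ x ∈ P, x y ≠ y) :
    Dat p P D ∧ ∀ y ∈ D, (orbit P y).ncard = p := by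
  haveI := Fact.mk hp
  have hinv : ∀ x ∈ P, ∀ y ∈ D, x y ∈ D := by
    intro x hx y hy
    by_contra hc
    have := hfix x hx _ hc
    rw [x.injective this] at hc
    exact hc hy
  have horb : ∀ y ∈ D, (orbit P y).ncard = p := by
    intro y hy
    obtain ⟨n, hn⟩ := hP.card_orbit y
    have hn' : (orbit P y).ncard = p ^ n := hn
    have h1 : (orbit P y).ncard ≤ D.ncard :=
      Set.ncard_le_ncard (by rintro _ ⟨x, rfl⟩; exact hinv x.1 x.2 y hy)
    have h2 : n < 2 := (Nat.pow_lt_pow_iff_right hp.one_lt).mp (by omega)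
    obtain ⟨x, hx, hxy⟩ := hmove y hy
    have h3 : 1 < (orbit P y).ncard :=
      (Set.one_lt_ncard_iff).mpr ⟨_, _, mem_orbit y (⟨x, hx⟩ : P), mem_orbit_self y, hxy⟩
    interval_cases n
    · simp [hn'] at h3
    · simpa using hn'
  have hnorm : ∀ y ∈ D, (stabilizer P y).index = p ∧ (stabilizer P y).Normal := by
    intro y hy
    have h1 : (stabilizer P y).index = p := by rw [index_stabilizer, horb y hy]
    refine ⟨h1, Subgroup.normal_of_index_eq_minFac_card ?_⟩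
    obtain ⟨n, hn⟩ := IsPGroup.iff_card.mp hP
    have h2 : p ∣ Nat.card P := h1 ▸ Subgroup.index_dvd_card _
    have h3 : n ≠ 0 := by
      rintro rfl
      rw [hn, pow_zero, Nat.dvd_one] at h2
      exact hp.one_lt.ne' h2
    rw [h1, hn, hp.pow_minFac h3]
  have hext : ∀ x ∈ P, ∀ w ∈ P, (∀ y ∈ D, x y = w y) → x = w := by
    intro x hx w hw e
    ext y
    by_cases hy : y ∈ D
    · exact e y hy
    · rw [hfix x hx y hy, hfix w hw y hy]
  have hq : ∀ y, ∀ a b : P, (QuotientGroup.mk a : P ⧸ stabilizer P y) = QuotientGroup.mk b →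
      a.1 y = b.1 y := by
    intro y a b e
    rw [QuotientGroup.eq, mem_stabilizer_iff] at e
    have e' : a.1⁻¹ (b.1 y) = y := e
    rw [Perm.inv_eq_iff_eq] at e'
    exact e'.symm
  refine ⟨⟨fun x hx w hw => hext _ (P.mul_mem hx hw) _ (P.mul_mem hw hx) fun y hy => ?_,
    fun x hx => hext _ (P.pow_mem hx p) _ P.one_mem fun y hy => ?_, fun y hy => ?_, hfix, hmove⟩, horb⟩
  · obtain ⟨h1, h2⟩ := hnorm y hy
    haveI : IsCyclic (P ⧸ stabilizer P y) := isCyclic_of_prime_card (p := p) h1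
    refine hq y (⟨x, hx⟩ * ⟨w, hw⟩) (⟨w, hw⟩ * ⟨x, hx⟩) ?_
    rw [QuotientGroup.mk_mul, QuotientGroup.mk_mul]
    exact IsCyclic.commGroup.mul_comm _ _
  · obtain ⟨h1, h2⟩ := hnorm y hy
    have := Subgroup.pow_index_mem (stabilizer P y) ⟨x, hx⟩
    rw [h1] at this
    exact this
  · obtain ⟨h1, h2⟩ := hnorm y hy
    haveI : IsCyclic (P ⧸ stabilizer P y) := isCyclic_of_prime_card (p := p) h1
    obtain ⟨q, hq'⟩ := IsCyclic.exists_zpow_surjective (G := P ⧸ stabilizer P y)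
    obtain ⟨x₀, rfl⟩ := QuotientGroup.mk_surjective q
    refine ⟨x₀.1, x₀.2, fun w hw => ?_⟩
    obtain ⟨i, hi⟩ := hq' (QuotientGroup.mk ⟨w, hw⟩)
    refine ⟨i, (hq y (x₀ ^ i) ⟨w, hw⟩ ?_).symm⟩
    rw [QuotientGroup.mk_zpow]; exact hi

end Cfsg.Agent.Mil
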