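import Mathlib
import Cfsg.Agent.Mil.A
import Cfsg.Agent.Perm.Multi
import Cfsg.Agent.S0711

set_option autoImplicit false

namespace Cfsg.Agent.Mil

open Equiv Equiv.Perm MulAction Subgroup

variable {α : Type*} [Fintype α] [DecidableEq α]

/-- a Sylow subgroup of the pointwise stabiliser of an `r`-set; its normaliser induces everything. -/
theorem exists_P (G : Subgroup (Perm α)) {p r : ℕ} (hp : p.Prime) (hrn : r + 1 ≤ Fintype.card α)
    (hG : IsMultiplyPretransitive G α (r + 1)) (Γ : Finset α) (hΓ : Γ.card = r)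
    (hd : p ∣ Fintype.card α - r) :
    ∃ P : Subgroup (Perm α), P ≤ G ∧ IsPGroup p P ∧ (∀ x ∈ P, ∀ y ∈ Γ, x y = y) ∧
      (∀ y, y ∉ Γ → ∃ x ∈ P, x y ≠ y) ∧
      ∀ τ : Perm α, (∀ y ∈ Γ, τ y ∈ Γ) → ∃ g ∈ G, g ∈ normalizer (P : Set (Perm α)) ∧
        ∀ y ∈ Γ, g y = τ y := by
  haveI := Fact.mk hp
  let H : Subgroup (Perm α) := G ⊓ fixingSubgroup (Perm α) (Γ : Set α)
  have hH : ∀ x, x ∈ H ↔ x ∈ G ∧ ∀ y ∈ Γ, x y = y := by
    intro x
    simp only [H, Subgroup.mem_inf, mem_fixingSubgroup_iff]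
    rfl
  obtain ⟨S⟩ : Nonempty (Sylow p H) := inferInstance
  refine ⟨(S : Subgroup H).map H.subtype, ?_, S.isPGroup'.map _, ?_, ?_, ?_⟩
  · rintro _ ⟨x, -, rfl⟩; exact ((hH _).1 x.2).1
  · rintro _ ⟨x, -, rfl⟩; exact ((hH _).1 x.2).2
  · intro y hy
    by_contra hc
    push Not at hc
    have h1 : (S : Subgroup H) ≤ stabilizer H y := fun x hx => hc x.1 ⟨x, hx, rfl⟩
    have h2 : orbit H y = (Γ : Set α)ᶜ := by
      ext z
      constructor
      · rintro ⟨x, rfl⟩ hz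
        have e : x.1 (x.1 y) = x.1 y := ((hH _).1 x.2).2 _ hz
        apply hy
        have e2 : x.1 y = y := x.1.injective e
        have hz' : x.1 y ∈ Γ := hz
        rwa [e2] at hz'
      · intro hz
        obtain ⟨h, hh, hfix, e⟩ := S0711.ext_one G hrn hG Γ (by omega) hy hz
        exact ⟨⟨h, (hH h).2 ⟨hh, hfix⟩⟩, e⟩
    have h3 : (stabilizer H y).index = Fintype.card α - r := by
      rw [index_stabilizer, h2, Set.ncard_compl, Set.ncard_coe_finset, hΓ, Nat.card_eq_fintype_card]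
    exact S.not_dvd_index ((h3 ▸ hd).trans (Subgroup.index_dvd_of_le h1))
  · intro τ hτ
    obtain ⟨x, hx⟩ := Perm.multi_finset hG (by rwa [Nat.card_eq_fintype_card]) Γ (by omega) τ
      τ.injective.injOn
    have hx' : ∀ a ∈ Γ, x.1 a = τ a := hx
    have hxs : ∀ a ∈ Γ, x.1⁻¹ a ∈ Γ := by
      intro a ha
      have hsurj : Set.SurjOn τ Γ Γ :=
        (Set.toFinite (Γ : Set α)).surjOn_iff_bijOn_of_mapsTo hτ |>.mpr
          ((Set.toFinite (Γ : Set α)).injOn_iff_bijOn_of_mapsTo hτ |>.mp τ.injective.injOn) 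
      obtain ⟨b, hb, rfl⟩ := hsurj ha
      rw [← hx' b hb]; simpa using hb
    let Q : Subgroup (Perm α) := ((S : Subgroup H).map H.subtype).map (MulAut.conj x.1).toMonoidHom
    have hQ : IsPGroup p Q := (S.isPGroup'.map _).map _
    have hQH : Q ≤ H := by
      rintro _ ⟨_, ⟨u, -, rfl⟩, rfl⟩
      refine (hH _).2 ⟨G.mul_mem (G.mul_mem x.2 ((hH _).1 u.2).1) (G.inv_mem x.2), fun y hy => ?_⟩
      change x.1 (u.1 (x.1⁻¹ y)) = y
      rw [((hH _).1 u.2).2 _ (hxs y hy)]; simp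
    obtain ⟨S', hS'⟩ := (hQ.comap_subtype (K := H)).exists_le_sylow
    obtain ⟨h, hh⟩ := MulAction.exists_smul_eq H S' S
    refine ⟨h.1 * x.1, G.mul_mem ((hH _).1 h.2).1 x.2, ?_, fun y hy => ?_⟩
    · apply Subgroup.mem_normalizer_fintype
      intro n hn
      have h1 : x.1 * n * x.1⁻¹ ∈ Q := ⟨n, hn, rfl⟩
      have h2 : (⟨_, hQH h1⟩ : H) ∈ S' := hS' h1
      have h3 : h * ⟨_, hQH h1⟩ * h⁻¹ ∈ S := by
        rw [← hh]
        exact ⟨_, h2, rfl⟩
      refine ⟨_, h3, ?_⟩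
      simp only [Subgroup.coe_subtype, Subgroup.coe_mul, InvMemClass.coe_inv]
      group
    · rw [mul_apply, hx' y hy]
      exact ((hH _).1 h.2).2 _ (hτ y hy)

theorem eq_one_of_central {β : Type*} [Fintype β] [DecidableEq β] (h3 : 3 ≤ Fintype.card β)
    (σ : Perm β) (h : ∀ τ : Perm β, σ * τ = τ * σ) : σ = 1 := by
  ext a
  by_contra ha
  replace ha : σ a ≠ a := ha
  obtain ⟨c, hc⟩ : ∃ c, c ∉ ({a, σ a} : Finset β) := by
    by_contra hc
    push Not at hc
    have h1 : (Finset.univ : Finset β) ⊆ {a, σ a} := fun c _ => hc c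
    have h2 := Finset.card_le_card h1
    have h4 : ({a, σ a} : Finset β).card ≤ 2 := Finset.card_le_two
    rw [Finset.card_univ] at h2
    omega
  simp only [Finset.mem_insert, Finset.mem_singleton, not_or] at hc
  have e := congrArg (fun u : Perm β => u a) (h (swap (σ a) c))
  simp only [mul_apply, swap_apply_left] at e
  rw [swap_apply_of_ne_of_ne (fun h => ha h.symm) (fun h => hc.1 h.symm)] at e
  exact hc.2 e.symm

end Cfsg.Agent.Mil
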